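import Mathlib
import Cfsg.Agent.Lib.Helper70.Alp.S3782Defs

set_option autoImplicit false

/-!
Package (E) of S3782: the group version of Higman's theorem with torsion, via the Lie ring of
the lower central series (`Helper34.LcsLie`).
-/

namespace Cfsg.Agent.Lib.Helper68.Alp

open Cfsg.Agent.Lib.Helper34 Cfsg.Agent.Lib.Helper70.Alp

universe u

/-- The lower central series of the whole Lie ring is antitone (one step). -/
theorem lcsA_top_succ_le {Λ : Type*} [LieRing Λ] :
    ∀ c : ℕ, lcsA (⊤ : AddSubgroup Λ) (c + 1) ≤ lcsA (⊤ : AddSubgroup Λ) c := by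
  intro c
  induction c with
  | zero => rw [lcsA_zero]; exact le_top
  | succ c ih =>
    rw [lcsA_succ, lcsA_succ (⊤ : AddSubgroup Λ) c]
    exact brk_mono ih le_rfl

/-- The lower central series of the whole Lie ring is antitone. -/
theorem lcsA_top_anti {Λ : Type*} [LieRing Λ] {a b : ℕ} (h : a ≤ b) :
    lcsA (⊤ : AddSubgroup Λ) b ≤ lcsA (⊤ : AddSubgroup Λ) a := by
  induction h with
  | refl => exact le_rfl
  | step _ ih => exact (lcsA_top_succ_le _).trans ih

/-- Fixed points of the induced Lie ring endomorphism are killed by `p ^ n`, if the fixed points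
of `α` on the lower central factors are. -/
theorem autL_fix_tor {N : Type u} [Group N] (α : N ≃* N) (q : ℕ)
    (hfix : ∀ c : ℕ, ∀ g ∈ (⊤ : Subgroup N).lowerCentralSeries c,
      g⁻¹ * α g ∈ (⊤ : Subgroup N).lowerCentralSeries (c + 1) →
      g ^ q ∈ (⊤ : Subgroup N).lowerCentralSeries (c + 1))
    (x : LL N) (hx : autL α x = x) : q • x = 0 := by
  have h1 : ∀ m, q • prL m x = 0 := by
    intro m
    obtain ⟨g, hg, hgx⟩ := prL_exists m x
    have h2 : autL α (prL m x) = prL m x := by rw [← autL_prL, hx]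
    rw [hgx, autL_iota] at h2
    have hαg := map_mem_gam α hg
    have h3 : iota m (g⁻¹ * α g) = 0 := by
      rw [iota_mul (Subgroup.inv_mem _ hg) hαg, iota_inv hg, h2, neg_add_cancel]
    have h4 := (iota_eq_zero_iff (Subgroup.mul_mem _ (Subgroup.inv_mem _ hg) hαg)).mp h3
    have h5 := hfix m g hg h4
    rw [hgx, ← iota_pow hg]
    exact iota_low h5
  obtain ⟨M, hM⟩ := prL_sum x
  rw [hM M le_rfl, Finset.smul_sum]
  exact Finset.sum_eq_zero (fun m _ => h1 m)

theorem lemGrpTor (hD : LemLieTor.{u}) : LemGrpTor.{u} := by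
  intro p _ N _ _ α n hα hfix c hc g hg
  have key := hD (p := p) (autL (G := N) α) n (autL_lie α) (autL_per α hα)
    (autL_fix_tor α (p ^ n) hfix)
  have h1 : iota c g ∈ lcsA (⊤ : AddSubgroup (LL N)) (hB p) :=
    lcsA_top_anti hc (iota_mem_lcsA c g hg)
  have h2 := key _ h1
  rw [← iota_pow hg] at h2
  exact (iota_eq_zero_iff (Subgroup.pow_mem _ hg _)).mp h2

end Cfsg.Agent.Lib.Helper68.Alp
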